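import Mathlib
import Cfsg.Agent.Lib.Helper83.MinSU.DefsO
import Cfsg.Agent.Lib.Helper81.MinSU.G1

/-! Piece [oG3] of the farm for S2151. -/

set_option autoImplicit false

namespace Cfsg.Agent.Lib.Helper1.MinSU.O

open Matrix Cfsg.Agent.Lib.Helper13 Cfsg.Agent.Lib.Helper5 Cfsg.Agent.Lib.Helper57.RootSU
  Cfsg.Agent.Lib.Helper83.MinSU
open Cfsg.Agent.Lib.Helper81.MinSU (iotaLin iota_injective herm_iota_iota)

variable {F : Type*} [Field F] [Fintype F] {q m n : ℕ}

/-- [oG3] -/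
theorem hasBig_of_eps (hF : Fintype.card F = q ^ 2) (K : Subgroup (Cfsg.SU (m + 2) F q))
    (x : Cfsg.SU (m + 2) F q) (E : Submodule F (Fin m → F)) (hE : Nondeg q E) (hd : BigW q E)
    (h : ∀ w ∈ E, Cfsg.hermForm m F q w w = 0 → ∀ c : F, c + c ^ q = 0 →
      x * ut hF (iota w) c * x⁻¹ ∈ K) : HasBig hF K := by
  set f : (Fin m → F) →ₗ[F] (Fin (m + 2) → F) := (Matrix.toLin' x.1.1) ∘ₗ iotaLin F m with hf
  have hfa : ∀ y, f y = x.1.1 *ᵥ iota y := by
    intro y
    rw [hf, LinearMap.comp_apply, Matrix.toLin'_apply]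
    rfl
  have hform : ∀ y y', Cfsg.hermForm (m + 2) F q (f y) (f y') = Cfsg.hermForm m F q y y' := by
    intro y y'
    rw [hfa, hfa, SU_preserves, herm_iota_iota hF]
  have hinj : Function.Injective f := by
    intro a b hab
    rw [hfa, hfa] at hab
    apply iota_injective
    rw [← SU_inv_mulVec_mulVec x (iota a), hab, SU_inv_mulVec_mulVec]
  have hrank : Module.finrank F (E.map f) = Module.finrank F E :=
    (Submodule.equivMapOfInjective f hinj E).finrank_eq.symm
  refine ⟨E.map f, ?_, ?_, ?_⟩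
  · rintro _ ⟨y, hy, rfl⟩ hperp
    have : y = 0 := by
      apply hE y hy
      intro y' hy'
      rw [← hform]
      exact hperp _ ⟨y', hy', rfl⟩
    rw [this, map_zero]
  · unfold BigW at hd ⊢
    rw [hrank]
    exact hd
  · rintro _ ⟨w, hw, rfl⟩ hiso
    have hw0 : Cfsg.hermForm m F q w w = 0 := by rw [← hform]; exact hiso
    refine ⟨hiso, fun c hc => ?_⟩
    have hi : Cfsg.hermForm (m + 2) F q (iota w) (iota w) = 0 := by rw [herm_iota_iota hF, hw0]
    rw [hfa, ← ut_conj hF x hi hc]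
    exact h w hw hw0 c hc

end Cfsg.Agent.Lib.Helper1.MinSU.O
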