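import Mathlib
import Cfsg.Agent.Lib.Helper83.MinSU.DefsO
import Cfsg.Agent.Lib.Helper12.MinSU.oNUM
import Cfsg.Agent.Lib.Helper12.MinSU.oBIG
import Cfsg.Agent.Lib.Helper15.MinSU.DUAL
import Cfsg.Agent.Lib.Helper75.MinSU.WBI

/-! Piece [oWBI] of the farm for S2151 (adapted from helper75's WBI). -/

set_option autoImplicit false

namespace Cfsg.Agent.Lib.Helper1.MinSU.O

open Matrix Cfsg.Agent.Lib.Helper13 Cfsg.Agent.Lib.Helper5 Cfsg.Agent.Lib.Helper57.RootSU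
  Cfsg.Agent.Lib.Helper83.MinSU
open Cfsg.Agent.Lib.Helper12.MinSU.O
open Cfsg.Agent.Lib.Helper15.MinSU (iso_lemma)
open Cfsg.Agent.Lib.Helper75.MinSU (two_le_q)

variable {F : Type*} [Field F] [Fintype F] {q m n : ℕ}

/-- `N'_(m+2) ≤ q^(m+1) N'_m`. -/
lemma arith_wbi_o (q m N N' : ℕ) (hq : 2 ≤ q) (hm : 5 ≤ m)
    (h1 : N * (q ^ 2 - 1) = (q ^ m + 1) * (q ^ (m - 1) - 1))
    (h2 : N' = 1 + q ^ 2 * N + q ^ (2 * m + 1)) : N' ≤ q ^ (m + 1) * N := by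
  obtain ⟨k, rfl⟩ : ∃ k, m = k + 5 := ⟨m - 5, by omega⟩
  obtain ⟨a, ha⟩ : ∃ a, a = q ^ (k + 4) := ⟨_, rfl⟩
  have e1 : q ^ (k + 5) = q * a := by rw [ha]; ring
  have e2 : q ^ (k + 5 - 1) = a := by rw [ha]; rfl
  have e3 : q ^ (2 * (k + 5) + 1) = q ^ 3 * a ^ 2 := by rw [ha]; ring
  have e4 : q ^ (k + 5 + 1) = q ^ 2 * a := by rw [ha]; ring
  have ha3 : q ^ 4 ≤ a := by
    rw [ha]
    exact Nat.pow_le_pow_right (by omega) (by omega)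
  rw [e1, e2] at h1
  rw [h2, e3, e4]
  have hq2 : 1 ≤ q ^ 2 := Nat.one_le_pow _ _ (by omega)
  have ha1 : 1 ≤ a := le_trans (Nat.one_le_pow _ _ (by omega)) ha3
  zify [hq2, ha1] at h1 ⊢
  have hQ : (2 : ℤ) ≤ q := by exact_mod_cast hq
  have hA : (q : ℤ) ^ 4 ≤ a := by exact_mod_cast ha3
  generalize (q : ℤ) = Q at *
  generalize (a : ℤ) = A at *
  generalize (N : ℤ) = M at *
  have hQ2 : 0 < Q ^ 2 - 1 := by nlinarith
  have hQ0 : 0 ≤ Q := by linarith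
  have hQsq : 4 ≤ Q ^ 2 := by nlinarith
  have hAQ : Q ^ 2 + 3 ≤ A := by nlinarith
  have hA0 : 0 ≤ A := by nlinarith
  have hA1 : 1 ≤ A := by nlinarith
  have s1 : Q ^ 3 * A ^ 2 * (Q ^ 2 + 1) ≤ Q ^ 3 * A ^ 2 * (A - 2) :=
    mul_le_mul_of_nonneg_left (by linarith) (by positivity)
  have s2 : Q ^ 3 * A ^ 2 * (A - 2) ≤ Q ^ 2 * (A - 1) ^ 2 * (Q * A + 1) := by
    have e : Q ^ 2 * (A - 1) ^ 2 * (Q * A + 1) - Q ^ 3 * A ^ 2 * (A - 2)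
        = Q ^ 2 * ((A - 1) ^ 2 + Q * A) := by ring
    have : 0 ≤ Q ^ 2 * ((A - 1) ^ 2 + Q * A) := by positivity
    linarith
  have s3 : (Q ^ 2 - 1) * (1 + Q ^ 3 * A ^ 2) ≤ Q ^ 3 * A ^ 2 * (Q ^ 2 + 1) := by
    have e : Q ^ 3 * A ^ 2 * (Q ^ 2 + 1) - (Q ^ 2 - 1) * (1 + Q ^ 3 * A ^ 2)
        = 2 * (Q ^ 3 * A ^ 2) - Q ^ 2 + 1 := by ring
    have t1 : Q ^ 2 * 1 ≤ Q ^ 2 * (Q * A ^ 2) := by
      apply mul_le_mul_of_nonneg_left _ (by positivity)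
      nlinarith
    nlinarith
  have fin : (Q ^ 2 - 1) * (1 + Q ^ 2 * M + Q ^ 3 * A ^ 2) ≤ (Q ^ 2 - 1) * (Q ^ 2 * A * M) := by
    have l : (Q ^ 2 - 1) * (1 + Q ^ 2 * M + Q ^ 3 * A ^ 2)
        = (Q ^ 2 - 1) * (1 + Q ^ 3 * A ^ 2) + Q ^ 2 * (M * (Q ^ 2 - 1)) := by ring
    have r : (Q ^ 2 - 1) * (Q ^ 2 * A * M) = Q ^ 2 * A * (M * (Q ^ 2 - 1)) := by ring
    rw [l, r, h1]
    have e : Q ^ 2 * A * ((Q * A + 1) * (A - 1)) - Q ^ 2 * ((Q * A + 1) * (A - 1))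
        = Q ^ 2 * (A - 1) ^ 2 * (Q * A + 1) := by ring
    linarith
  exact le_of_mul_le_mul_left fin hQ2

/-- [oWBI] -/
theorem wb_of_ih (hF : Fintype.card F = q ^ 2) (hm : 5 ≤ m) (ho : Odd m)
    (IH : ∀ R : Subgroup (Cfsg.SU m F q), R ≠ ⊤ → NO q m ≤ R.index) : WBo F q m := by
  intro D R hD0 hDq _ hR
  have hq := two_le_q hF
  obtain ⟨s, hs0, hs⟩ := exists_skew_q hF
  have hcard : Nat.card D ^ 2 ≤ q ^ (2 * m) := by
    apply iso_lemma hF ⊥ ⟨s, hs, by simpa using hs0⟩ D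
    intro w hw w' hw'
    rw [AddSubgroup.mem_bot, ← hermForm_swap hF w w', hDq w hw w' hw', sub_self]
  have hcard' : Nat.card D ≤ q ^ m := by
    have : Nat.card D ^ 2 ≤ (q ^ m) ^ 2 := by rw [← pow_mul, mul_comm m 2]; exact hcard
    exact (Nat.pow_le_pow_iff_left (by norm_num)).1 this
  have hRtop : R ≠ ⊤ := by
    rintro rfl
    obtain ⟨w, hw, hw0⟩ : ∃ w ∈ D, w ≠ 0 := by
      by_contra hcon
      push Not at hcon
      exact hD0 ((AddSubgroup.eq_bot_iff_forall D).2 hcon)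
    have := big_lemma hF (by omega) D w hw hw0
      (fun y _ _ => ⟨s, hs0, hs, fun z hz => hR _ (Subgroup.mem_top _) z hz⟩)
    omega
  have hidx := IH R hRtop
  have hN := arith_wbi_o q m (NO q m) (NO q (m + 2)) hq hm (NO_mul hq ho)
    (NO_succ hq ho)
  calc Nat.card D * NO q (m + 2) ≤ q ^ m * (q ^ (m + 1) * NO q m) := Nat.mul_le_mul hcard' hN
    _ = q ^ (2 * m + 1) * NO q m := by ring
    _ ≤ q ^ (2 * m + 1) * R.index := Nat.mul_le_mul_left _ hidx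

end Cfsg.Agent.Lib.Helper1.MinSU.O
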